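import Cfsg.Agent.Lib.Geometric.Orth.DecompShift

/-!
Non-degenerate subspaces of a quadratic space in characteristic two: hyperbolic splittings, singular
vectors and their pairings.
-/

set_option autoImplicit false

namespace CfsgLib.Geometric.Orth.EvenChar

open Matrix QuadraticMap Module CfsgLib.ClassicalForms

variable {ι : Type} [Fintype ι] [DecidableEq ι] {F : Type*} [Field F]
variable {Q : QuadraticForm F (ι → F)}
variable (h2 : (2 : F) = 0)
include h2

omit [Fintype ι] [DecidableEq ι] in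
lemma polar_self_zero (x : ι → F) : polar Q x x = 0 := by
  rw [polar_self_mul, h2, zero_mul]

omit [Fintype ι] [DecidableEq ι] in
lemma neg_eq (x : ι → F) : -x = x := by
  have : (2 : F) • x = 0 := by rw [h2, zero_smul]
  rw [two_smul] at this
  exact neg_eq_of_add_eq_zero_left this

lemma neg_scalar (x : F) : -x = x := by linear_combination (-x) * h2

/-- Squaring is onto. -/
lemma exists_sqrt [Finite F] (c : F) : ∃ s : F, s * s = c := by
  have hinj : Function.Injective fun s : F => s * s := fun x y h => by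
    have h' : (x - y) * (x - y) = 0 := by
      have : x * x = y * y := h
      linear_combination this + (y * y - x * y) * h2
    exact sub_eq_zero.1 (mul_self_eq_zero.1 h')
  exact (Finite.injective_iff_surjective.1 hinj) c

omit [Fintype ι] [DecidableEq ι] in
/-- A vector can be corrected along an anisotropic one orthogonal to it to a singular vector. -/
lemma exists_sing_add [Finite F] {p q : ι → F} (hp : Q p ≠ 0) (hpq : polar Q q p = 0) :
    ∃ c : F, Q (q + c • p) = 0 := by
  obtain ⟨c, hc⟩ := exists_sqrt h2 (-(Q q) * (Q p)⁻¹)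
  refine ⟨c, ?_⟩
  rw [QuadraticMap.map_add (⇑Q), QuadraticMap.map_smul, polar_smul_right, hpq, smul_zero, add_zero,
    smul_eq_mul, hc, mul_assoc, inv_mul_cancel₀ hp, mul_one, add_neg_cancel]

variable {W : Submodule F (ι → F)} (hW : Cfsg.Geo.IsNondegenerateOn (polar (⇑Q)) W)

omit [DecidableEq ι] in
/-- A subspace of dimension at least three has a singular vector. -/
lemma exists_singular [Finite F] {U : Submodule F (ι → F)} (hd : 3 ≤ finrank F U) :
    ∃ e ∈ U, e ≠ 0 ∧ Q e = 0 := by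
  obtain ⟨p, hp, hp0⟩ := Submodule.exists_mem_ne_zero_of_ne_bot
    (show U ≠ ⊥ from fun h => by rw [h, finrank_bot] at hd; omega)
  by_cases hQp : Q p = 0
  · exact ⟨p, hp, hp0, hQp⟩
  have h1 := finrank_le_inf_ker U (pf Q p)
  obtain ⟨q, hq, hqp⟩ : ∃ q ∈ U ⊓ LinearMap.ker (pf Q p), q ∉ Submodule.span F {p} := by
    by_contra h
    push Not at h
    have := (Submodule.finrank_mono h).trans (finrank_span_singleton hp0).le
    omega
  obtain ⟨c, hc⟩ := exists_sing_add h2 hQp (q := q) hq.2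
  refine ⟨q + c • p, U.add_mem hq.1 (U.smul_mem _ hp), fun h0 => hqp ?_, hc⟩
  rw [eq_neg_of_add_eq_zero_left h0]
  exact Submodule.neg_mem _ (Submodule.smul_mem _ _ (Submodule.mem_span_singleton_self p))

include hW

omit [Fintype ι] [DecidableEq ι] in
/-- Normalised partner of a non-zero vector. -/
lemma exists_polar_one {x : ι → F} (hx : x ∈ W) (hx0 : x ≠ 0) :
    ∃ y ∈ W, polar Q x y = 1 := by
  obtain ⟨y, hy, hxy⟩ := (hW x hx hx0).2
  exact ⟨(polar Q x y)⁻¹ • y, W.smul_mem _ hy, by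
    rw [polar_smul_right, smul_eq_mul, inv_mul_cancel₀ hxy]⟩

omit hW in
/-- The common orthogonal space of two vectors inside a subspace. -/
def perp2 (Q : QuadraticForm F (ι → F)) (W : Submodule F (ι → F)) (e f : ι → F) :
    Submodule F (ι → F) :=
  W ⊓ LinearMap.ker (pf Q e) ⊓ LinearMap.ker (pf Q f)

omit hW h2 [Fintype ι] [DecidableEq ι] in
lemma mem_perp2 {e f x : ι → F} :
    x ∈ perp2 Q W e f ↔ x ∈ W ∧ polar Q x e = 0 ∧ polar Q x f = 0 := by
  simp [perp2, and_assoc]

omit hW [DecidableEq ι] in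
lemma finrank_le_perp2 (e f : ι → F) :
    finrank F W ≤ finrank F (perp2 Q W e f) + 2 := by
  have h1 := finrank_le_inf_ker W (pf Q e)
  have h3 := finrank_le_inf_ker (W ⊓ LinearMap.ker (pf Q e)) (pf Q f)
  unfold perp2
  omega

omit hW [Fintype ι] [DecidableEq ι] in
/-- The projection along a hyperbolic pair. -/
lemma proj_mem {e f x : ι → F} (he : e ∈ W) (hf : f ∈ W) (hef : polar Q e f = 1) (hx : x ∈ W) :
    x - polar Q x f • e - polar Q x e • f ∈ perp2 Q W e f := by
  have hfe : polar Q f e = 1 := by rw [polar_comm, hef]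
  rw [mem_perp2]
  refine ⟨W.sub_mem (W.sub_mem hx (W.smul_mem _ he)) (W.smul_mem _ hf), ?_, ?_⟩
  · rw [polar_sub_left, polar_sub_left, polar_smul_left, polar_smul_left, polar_self_zero h2, hfe]
    simp
  · rw [polar_sub_left, polar_sub_left, polar_smul_left, polar_smul_left, polar_self_zero h2, hef]
    simp

omit [Fintype ι] [DecidableEq ι] in
lemma nondeg_perp2 {e f : ι → F} (he : e ∈ W) (hf : f ∈ W) (hef : polar Q e f = 1) :
    Cfsg.Geo.IsNondegenerateOn (polar (⇑Q)) (perp2 Q W e f) := by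
  intro x hx hx0
  obtain ⟨hxW, hxe, hxf⟩ := mem_perp2.1 hx
  obtain ⟨y, hy, hxy⟩ := (hW x hxW hx0).2
  refine ⟨⟨_, proj_mem h2 he hf hef hy, ?_⟩, ⟨_, proj_mem h2 he hf hef hy, ?_⟩⟩
  · rw [polar_comm, polar_sub_right, polar_sub_right, polar_smul_right, polar_smul_right, hxe, hxf]
    simpa using hxy
  · rw [polar_sub_right, polar_sub_right, polar_smul_right, polar_smul_right, hxe, hxf]
    simpa using hxy

omit [DecidableEq ι] in
/-- Two vectors orthogonal to a given one pairing non-trivially. -/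
lemma exists_pair (hd : 3 ≤ finrank F W) {e : ι → F} (he : e ∈ W) (he0 : e ≠ 0) :
    ∃ y ∈ W, ∃ y' ∈ W, polar Q e y = 0 ∧ polar Q e y' = 0 ∧ polar Q y y' = 1 := by
  obtain ⟨f, hf, hef⟩ := exists_polar_one h2 hW he he0
  have hd' := finrank_le_perp2 h2 (Q := Q) (W := W) e f
  obtain ⟨y, hy, hy0⟩ := Submodule.exists_mem_ne_zero_of_ne_bot
    (show perp2 Q W e f ≠ ⊥ from fun h => by rw [h, finrank_bot] at hd'; omega)
  obtain ⟨y', hy', hyy⟩ := exists_polar_one h2 (nondeg_perp2 h2 hW he hf hef) hy hy0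
  refine ⟨y, (mem_perp2.1 hy).1, y', (mem_perp2.1 hy').1, ?_, ?_, hyy⟩
  · rw [polar_comm]; exact (mem_perp2.1 hy).2.1
  · rw [polar_comm]; exact (mem_perp2.1 hy').2.1

omit [DecidableEq ι] in
/-- In dimension at least five, two vectors orthogonal to two orthogonal ones pair non-trivially. -/
lemma exists_pair_two (hd : 5 ≤ finrank F W) {e a : ι → F} (he : e ∈ W) (he0 : e ≠ 0) (ha : a ∈ W)
    (hea : polar Q e a = 0) :
    ∃ y ∈ W, ∃ y' ∈ W, polar Q e y = 0 ∧ polar Q e y' = 0 ∧ polar Q a y = 0 ∧ polar Q a y' = 0 ∧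
      polar Q y y' = 1 := by
  obtain ⟨f, hf, hef⟩ := exists_polar_one h2 hW he he0
  have hd' := finrank_le_perp2 h2 (Q := Q) (W := W) e f
  have hU := nondeg_perp2 h2 hW he hf hef
  set α := a - polar Q a f • e - polar Q a e • f
  have hα : α ∈ perp2 Q W e f := proj_mem h2 he hf hef ha
  have key : ∀ y ∈ perp2 Q W e f, polar Q α y = 0 → polar Q a y = 0 := by
    intro y hy h
    obtain ⟨-, hye, hyf⟩ := mem_perp2.1 hy
    rw [polar_sub_left, polar_sub_left, polar_smul_left, polar_smul_left, polar_comm Q e y, hye,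
      polar_comm Q f y, hyf] at h
    simpa using h
  obtain ⟨y, hy, y', hy', h1, h1', hyy⟩ : ∃ y ∈ perp2 Q W e f, ∃ y' ∈ perp2 Q W e f,
      polar Q α y = 0 ∧ polar Q α y' = 0 ∧ polar Q y y' = 1 := by
    by_cases hα0 : α = 0
    · obtain ⟨y, hy, hy0⟩ := Submodule.exists_mem_ne_zero_of_ne_bot
        (show perp2 Q W e f ≠ ⊥ from fun h => by rw [h, finrank_bot] at hd'; omega)
      obtain ⟨y', hy', hyy⟩ := exists_polar_one h2 hU hy hy0
      exact ⟨y, hy, y', hy', by rw [hα0, polar_zero_left], by rw [hα0, polar_zero_left], hyy⟩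
    · exact exists_pair h2 hU (by omega) hα hα0
  refine ⟨y, (mem_perp2.1 hy).1, y', (mem_perp2.1 hy').1, ?_, ?_, key y hy h1, key y' hy' h1', hyy⟩
  · rw [polar_comm]; exact (mem_perp2.1 hy).2.1
  · rw [polar_comm]; exact (mem_perp2.1 hy').2.1

omit [DecidableEq ι] in
/-- A non-zero vector pairs non-trivially with a singular vector. -/
lemma exists_singular_pairing [Finite F] (hd : 3 ≤ finrank F W) {x : ι → F} (hx : x ∈ W)
    (hx0 : x ≠ 0) : ∃ e ∈ W, e ≠ 0 ∧ Q e = 0 ∧ polar Q x e = 1 := by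
  suffices h : ∃ e ∈ W, Q e = 0 ∧ polar Q x e ≠ 0 by
    obtain ⟨e, he, hQe, hxe⟩ := h
    refine ⟨(polar Q x e)⁻¹ • e, W.smul_mem _ he, ?_, ?_, ?_⟩
    · exact smul_ne_zero (inv_ne_zero hxe) fun h => hxe (by rw [h, polar_zero_right])
    · rw [QuadraticMap.map_smul, hQe, smul_zero]
    · rw [polar_smul_right, smul_eq_mul, inv_mul_cancel₀ hxe]
  obtain ⟨e, he, he0, hQe⟩ := exists_singular h2 (Q := Q) hd
  obtain ⟨f, hf, hQf, hef⟩ := exists_partner_in hW he he0 hQe
  by_cases h1 : polar Q x e ≠ 0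
  · exact ⟨e, he, hQe, h1⟩
  by_cases h3 : polar Q x f ≠ 0
  · exact ⟨f, hf, hQf, h3⟩
  push Not at h1 h3
  have hx' : x ∈ perp2 Q W e f := mem_perp2.2 ⟨hx, h1, h3⟩
  obtain ⟨y, hy, hxy⟩ := exists_polar_one h2 (nondeg_perp2 h2 hW he hf hef) hx' hx0
  obtain ⟨hyW, hye, hyf⟩ := mem_perp2.1 hy
  refine ⟨e + y - Q y • f, W.sub_mem (W.add_mem he hyW) (W.smul_mem _ hf), ?_, ?_⟩
  · rw [map_sub_eq, QuadraticMap.map_add (⇑Q), QuadraticMap.map_smul, polar_smul_right,
      polar_add_left, hef, hyf, polar_comm Q e y, hye, hQe, hQf]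
    simp
  · rw [polar_sub_right, polar_add_right, polar_smul_right, h1, h3, hxy]
    simp

/-- The singular vectors orthogonal to an anisotropic vector separate the vectors off its line. -/
lemma exists_singular_perp_pairing [Finite F] (hQ : Nondeg Q) (hd : 3 ≤ finrank F W) {a x : ι → F}
    (ha : a ∈ W) (hQa : Q a ≠ 0) (hx : x ∈ W) (hxa : x ∉ Submodule.span F {a}) :
    ∃ e ∈ W, e ≠ 0 ∧ Q e = 0 ∧ polar Q e a = 0 ∧ polar Q x e ≠ 0 := by
  by_contra hall
  push Not at hall
  -- the singular correction of a vector orthogonal to `a`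
  have key : ∀ w ∈ W, polar Q w a = 0 →
      ∃ c : F, Q (w + c • a) = 0 ∧ polar Q x w + c * polar Q x a = 0 := by
    intro w hw hwa
    obtain ⟨c, hc⟩ := exists_sing_add h2 hQa hwa
    refine ⟨c, hc, ?_⟩
    by_cases h0 : w + c • a = 0
    · have := congrArg (polar Q x) h0
      rwa [polar_add_right, polar_smul_right, polar_zero_right, smul_eq_mul] at this
    · have := hall _ (W.add_mem hw (W.smul_mem _ ha)) h0 hc
        (by rw [polar_add_left, polar_smul_left, hwa, polar_self_zero h2, smul_zero, add_zero])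
      rwa [polar_add_right, polar_smul_right, smul_eq_mul] at this
  by_cases hp : polar Q x a = 0
  · obtain ⟨y, hy, hya, hxy⟩ :=
      exists_sep_in hQ hW ((Submodule.span_singleton_le_iff_mem _ _).2 ha) hx hxa
    obtain ⟨c, -, hc⟩ := key y hy (by
      rw [polar_comm]; exact hya a (Submodule.mem_span_singleton_self a))
    rw [hxy, hp, mul_zero, add_zero] at hc
    exact one_ne_zero hc
  · have ha0 : a ≠ 0 := fun h => hQa (by rw [h, QuadraticMap.map_zero])
    obtain ⟨w, hw, w', hw', h1, h1', hww⟩ := exists_pair h2 hW hd ha ha0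
    obtain ⟨c, hc, ec⟩ := key w hw (by rw [polar_comm, h1])
    obtain ⟨c', hc', ec'⟩ := key w' hw' (by rw [polar_comm, h1'])
    obtain ⟨c'', hc'', ec''⟩ := key (w + w') (W.add_mem hw hw')
      (by rw [polar_comm, polar_add_right, h1, h1', add_zero])
    rw [polar_add_right] at ec''
    have hcc : c'' = c + c' := mul_right_cancel₀ hp (by linear_combination ec'' - ec - ec')
    rw [QuadraticMap.map_add (⇑Q), QuadraticMap.map_smul, polar_smul_right, polar_comm Q w a, h1,
      smul_zero, add_zero, smul_eq_mul] at hc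
    rw [QuadraticMap.map_add (⇑Q), QuadraticMap.map_smul, polar_smul_right, polar_comm Q w' a, h1',
      smul_zero, add_zero, smul_eq_mul] at hc'
    rw [hcc, QuadraticMap.map_add (⇑Q), QuadraticMap.map_smul, polar_smul_right, polar_add_left,
      polar_comm Q w a, polar_comm Q w' a, h1, h1', add_zero, smul_zero, add_zero, smul_eq_mul,
      QuadraticMap.map_add (⇑Q), hww] at hc''
    exact one_ne_zero (α := F) (by linear_combination hc'' - hc - hc' - c * c' * Q a * h2)

end CfsgLib.Geometric.Orth.EvenChar
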