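import Cfsg.Agent.Lib.Geometric.OrthEven.Shift

/-!
In characteristic two a Siegel element of centre in a member and direction outside it generates the
whole group together with the stabiliser of the decomposition.
-/

set_option autoImplicit false

namespace CfsgLib.Geometric.Orth.EvenChar

open Matrix QuadraticMap Module CfsgLib.ClassicalForms

variable {ι : Type} [Fintype ι] [DecidableEq ι] {F : Type*} [Field F] [Finite F]
variable {Q : QuadraticForm F (ι → F)} {t k : ℕ} {D : Fin t → Submodule F (ι → F)}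
variable {M : Subgroup (GL ι F)}
variable (hQ : Nondeg Q) (h2 : (2 : F) = 0) (hn : 5 ≤ Fintype.card ι)
  (hD : Cfsg.Geo.IsOrthogonalMDecomposition (⇑Q) k D) (hk : 4 ≤ k)
  (hHM : Cfsg.Geo.decompositionStabilizer D ⊓ Cfsg.Geo.omegaGL (⇑Q) ≤ M)
  (hMI : M ≤ Cfsg.isometryGroup F (⇑Q))

local notation "cp" => Decomp.comp hD.decomp.decomp

include hQ h2 hn hD hk

/-- The exchange of two members along an isometry, fixing every other member. -/
lemma exists_exchange {l s : Fin t} (hls : l ≠ s) :
    ∃ g ∈ Cfsg.Geo.decompositionStabilizer D ⊓ Cfsg.Geo.omegaGL (⇑Q),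
      (∀ i, i ≠ l → i ≠ s → ∀ x ∈ D i, ap g x = x) ∧ ∀ y ∈ D s, ∃ x ∈ D l, ap g x = y := by
  obtain ⟨φ, hφ⟩ := hD.isometric l s
  have hpol : ∀ x y : D l, polar Q (φ x : ι → F) (φ y : ι → F) = polar Q (x : ι → F) (y : ι → F) := by
    intro x y
    have h := hφ (x + y)
    rw [map_add, Submodule.coe_add, Submodule.coe_add] at h
    simp only [polar, h, hφ x, hφ y]
  have key : ∀ d, ∀ U : Submodule F (ι → F), U ≤ D l → finrank F U = d →
      Cfsg.Geo.IsNondegenerateOn (polar (⇑Q)) U → ∃ g ∈ Cfsg.Geo.omegaGL (⇑Q),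
        (∀ i, i ≠ l → i ≠ s → ∀ x ∈ D i, ap g x = x) ∧
        (∀ x : D l, (x : ι → F) ∈ U →
          ap g x = (φ x : ι → F) ∧ ap g (φ x : ι → F) = (x : ι → F)) ∧
        ∀ x : D l, (∀ u ∈ U, polar Q (x : ι → F) u = 0) →
          ap g x = (x : ι → F) ∧ ap g (φ x : ι → F) = (φ x : ι → F) := by
    intro d
    induction d using Nat.strong_induction_on with
    | _ d ih =>
      intro U hU hd hUn
      by_cases hbot : U = ⊥
      · refine ⟨1, one_mem _, fun i _ _ x _ => ap_one x, fun x hx => ?_, fun x _ => ⟨ap_one _, ap_one _⟩⟩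
        rw [hbot, Submodule.mem_bot] at hx
        have : x = 0 := Subtype.ext hx
        subst this
        simp
      obtain ⟨e, he, he0⟩ := Submodule.exists_mem_ne_zero_of_ne_bot hbot
      obtain ⟨f, hf, hef⟩ := exists_polar_one h2 hUn he he0
      have hfe : polar Q f e = 1 := by rw [polar_comm, hef]
      have hlt : finrank F (perp2 Q U e f) < finrank F U := by
        refine Submodule.finrank_lt_finrank_of_lt (lt_of_le_of_ne ?_ fun h => ?_)
        · exact fun x hx => (mem_perp2.1 hx).1
        · have h1 : e ∈ perp2 Q U e f := h.ge he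
          exact one_ne_zero (hef.symm.trans (mem_perp2.1 h1).2.2)
      obtain ⟨g, hg, hgo, hgU, hgp⟩ := ih _ (hd ▸ hlt) (perp2 Q U e f)
        (fun x hx => hU (mem_perp2.1 hx).1) rfl (nondeg_perp2 h2 hUn he hf hef)
      set e' : D l := ⟨e, hU he⟩
      set f' : D l := ⟨f, hU hf⟩
      have hx : ∀ (x : D l) (y : D l), polar Q (x : ι → F) (φ y : ι → F) = 0 :=
        fun x y => orth_apply_blocks hD hls x.2 (φ y).2
      have hy : ∀ (x : D l) (y : D l), polar Q (φ x : ι → F) (y : ι → F) = 0 :=
        fun x y => orth_apply_blocks hD hls.symm (φ x).2 y.2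
      set δ : ι → F := e + (φ e' : ι → F)
      set ε : ι → F := f + (φ f' : ι → F)
      have hQδ : Q δ = 0 := by
        rw [QuadraticMap.map_add (⇑Q), hφ, show polar Q e (φ e' : ι → F) = 0 from hx e' e',
          show (e' : ι → F) = e from rfl]
        linear_combination Q e * h2
      have hQε : Q ε = 0 := by
        rw [QuadraticMap.map_add (⇑Q), hφ, show polar Q f (φ f' : ι → F) = 0 from hx f' f',
          show (f' : ι → F) = f from rfl]
        linear_combination Q f * h2
      -- pairings with the sums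
      have hpl : ∀ (x y : D l), polar Q (x : ι → F) ((y : ι → F) + (φ y : ι → F)) =
          polar Q (x : ι → F) (y : ι → F) := fun x y => by rw [polar_add_right, hx, add_zero]
      have hps : ∀ (x y : D l), polar Q (φ x : ι → F) ((y : ι → F) + (φ y : ι → F)) =
          polar Q (x : ι → F) (y : ι → F) := fun x y => by
        rw [polar_add_right, hy, hpol, zero_add]
      have hδε : polar Q δ ε = 0 := by
        rw [show δ = (e' : ι → F) + (φ e' : ι → F) from rfl, polar_add_left]
        show polar Q (e' : ι → F) ((f' : ι → F) + (φ f' : ι → F)) +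
          polar Q (φ e' : ι → F) ((f' : ι → F) + (φ f' : ι → F)) = 0
        rw [hpl, hps]
        linear_combination polar Q (e' : ι → F) (f' : ι → F) * h2
      set p := sg Q δ ε hQδ hδε with hp
      have hpfix : ∀ x, polar Q x δ = 0 → polar Q x ε = 0 → ap p x = x :=
        fun x h h' => ap_sg_fix hQδ hδε h h'
      have hapl : ∀ x : D l, ap p x = (x : ι → F) + polar Q (x : ι → F) e • ε -
          polar Q (x : ι → F) f • δ := fun x => by
        rw [hp, ap_sg, hQε, show polar Q (x : ι → F) δ = polar Q (x : ι → F) e from hpl x e',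
          show polar Q (x : ι → F) ε = polar Q (x : ι → F) f from hpl x f', zero_mul, add_zero]
      have haps : ∀ x : D l, ap p (φ x : ι → F) = (φ x : ι → F) + polar Q (x : ι → F) e • ε -
          polar Q (x : ι → F) f • δ := fun x => by
        rw [hp, ap_sg, hQε, show polar Q (φ x : ι → F) δ = polar Q (x : ι → F) e from hps x e',
          show polar Q (φ x : ι → F) ε = polar Q (x : ι → F) f from hps x f', zero_mul, add_zero]
      have hpe : ap p e = (φ e' : ι → F) ∧ ap p (φ e' : ι → F) = e := by
        have h1 := hapl e'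
        have h3 := haps e'
        rw [show (e' : ι → F) = e from rfl, polar_self_zero h2, hef, zero_smul, add_zero, one_smul]
          at h1 h3
        refine ⟨?_, ?_⟩
        · rw [h1, show δ = e + (φ e' : ι → F) from rfl, sub_add_cancel_left, neg_eq h2]
        · rw [h3, show δ = e + (φ e' : ι → F) from rfl, sub_add_cancel_right, neg_eq h2]
      have hpf : ap p f = (φ f' : ι → F) ∧ ap p (φ f' : ι → F) = f := by
        have h1 := hapl f'
        have h3 := haps f'
        rw [show (f' : ι → F) = f from rfl, polar_self_zero h2, hfe, zero_smul, sub_zero, one_smul]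
          at h1 h3
        refine ⟨?_, ?_⟩
        · rw [h1, show ε = f + (φ f' : ι → F) from rfl, ← add_assoc, ← two_smul F, h2, zero_smul,
            zero_add]
        · rw [h3, show ε = f + (φ f' : ι → F) from rfl,
            show (φ f' : ι → F) + (f + (φ f' : ι → F)) = f + (2 : F) • (φ f' : ι → F) by module, h2,
            zero_smul, add_zero]
      refine ⟨p * g, mul_mem (sg_mem hQ hn hQδ hδε) hg, fun i hil his x hxi => ?_, fun x hxU => ?_,
        fun x hxU => ?_⟩
      · rw [ap_mul, hgo i hil his x hxi]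
        refine hpfix x ?_ ?_
        · rw [polar_add_right, orth_apply_blocks hD hil hxi (hU he),
            orth_apply_blocks hD his hxi (φ e').2, add_zero]
        · rw [polar_add_right, orth_apply_blocks hD hil hxi (hU hf),
            orth_apply_blocks hD his hxi (φ f').2, add_zero]
      · set x' : D l := x - polar Q (x : ι → F) f • e' - polar Q (x : ι → F) e • f'
        have hx'm : (x' : ι → F) ∈ perp2 Q U e f := proj_mem h2 he hf hef hxU
        obtain ⟨-, hxe, hxf⟩ := mem_perp2.1 hx'm
        obtain ⟨a1, a2⟩ := hgU x' hx'm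
        obtain ⟨e1, e2⟩ := hgp e' fun u hu => by rw [polar_comm]; exact (mem_perp2.1 hu).2.1
        obtain ⟨f1, f2⟩ := hgp f' fun u hu => by rw [polar_comm]; exact (mem_perp2.1 hu).2.2
        have hfx : ap p (x' : ι → F) = (x' : ι → F) := by
          rw [hapl, hxe, hxf]; simp
        have hfφ : ap p (φ x' : ι → F) = (φ x' : ι → F) := by
          rw [haps, hxe, hxf]; simp
        have hdec : x = polar Q (x : ι → F) f • e' + polar Q (x : ι → F) e • f' + x' := by
          simp only [x']; abel
        rw [hdec]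
        simp only [map_add, map_smul, Submodule.coe_add, Submodule.coe_smul, ap_mul, ap_add, ap_smul,
          e1, e2, f1, f2, a1, a2, hfx, hfφ]
        simp only [show (e' : ι → F) = e from rfl, show (f' : ι → F) = f from rfl, hpe.1, hpe.2,
          hpf.1, hpf.2, and_self]
      · obtain ⟨a1, a2⟩ := hgp x fun u hu => hxU u (mem_perp2.1 hu).1
        rw [ap_mul, ap_mul, a1, a2, hapl, haps, hxU e he, hxU f hf]
        simp
  obtain ⟨g, hg, hgo, hgU, -⟩ := key _ (D l) le_rfl rfl (hD.decomp.nondegenerate l)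
  have hgs : ∀ y ∈ D s, ∃ x ∈ D l, ap g x = y ∧ ap g y = x := fun y hy => by
    obtain ⟨h1, h1'⟩ := hgU (φ.symm ⟨y, hy⟩) (φ.symm _).2
    rw [LinearEquiv.apply_symm_apply] at h1 h1'
    exact ⟨_, (φ.symm ⟨y, hy⟩).2, h1, h1'⟩
  refine ⟨g, ⟨mem_decompStab hD.decomp.decomp (π := Equiv.swap l s) fun i x hx => ?_, hg⟩, hgo,
    fun y hy => (hgs y hy).imp fun x hx => ⟨hx.1, hx.2.1⟩⟩
  by_cases hil : i = l
  · subst hil
    rw [Equiv.swap_apply_left, (hgU ⟨x, hx⟩ hx).1]
    exact (φ _).2
  · by_cases his : i = s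
    · subst his
      rw [Equiv.swap_apply_right]
      obtain ⟨x', hx', -, e⟩ := hgs x hx
      rw [e]; exact hx'
    · rw [Equiv.swap_apply_of_ne_of_ne hil his, hgo i hil his x hx]; exact hx

include hHM hMI

/-- A singular direction in another member spreads to the whole member. -/
lemma inn_member {l : Fin t} {z e : ι → F} (hze : Inn Q M z e) (he : e ∈ D l) (he0 : e ≠ 0)
    (hQe : Q e = 0) (hz : ∀ y ∈ D l, polar Q z y = 0) {d : ι → F} (hd : d ∈ D l) :
    Inn Q M z d := by
  have hW := hD.decomp.nondegenerate l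
  obtain ⟨f, hf, hQf, hef⟩ := exists_partner_in hW he he0 hQe
  have key : ∀ y ∈ D l, polar Q f y = 0 → polar Q e y = 0 → Inn Q M z (y - Q y • f) :=
    fun y hy hfy hey => by
      have h := key_shift hQ hn hD hHM hMI hze hf hy hQf hfy (hz f hf) (hz y hy)
      rwa [hef, hey, one_smul, zero_add, mul_one] at h
  have hU := nondeg_perp2 h2 hW he hf hef
  obtain ⟨y, hy, hy0⟩ := Submodule.exists_mem_ne_zero_of_ne_bot
    (show perp2 Q (D l) e f ≠ ⊥ from fun h => by
      have := finrank_le_perp2 h2 (Q := Q) (W := D l) e f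
      rw [h, finrank_bot, hD.decomp.decomp.finrank_eq] at this
      omega)
  obtain ⟨y', hy', hyy⟩ := exists_polar_one h2 hU hy hy0
  have hk' : ∀ u ∈ perp2 Q (D l) e f, Inn Q M z (u - Q u • f) := fun u hu => by
    obtain ⟨h1, h3, h4⟩ := mem_perp2.1 hu
    exact key u h1 (by rw [polar_comm]; exact h4) (by rw [polar_comm]; exact h3)
  have hinf : Inn Q M z f := by
    have h := (((hk' _ (Submodule.add_mem _ hy hy')).sub (hk' y hy)).sub (hk' y' hy')).smul (-1 : F)
    rw [QuadraticMap.map_add (⇑Q), hyy] at h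
    convert h using 1
    module
  have hu := proj_mem h2 he hf hef hd
  have := ((hze.smul (polar Q d f)).add (hinf.smul (polar Q d e))).add
    ((hk' _ hu).add (hinf.smul (Q (d - polar Q d f • e - polar Q d e • f))))
  convert this using 1
  module

/-- A mixed element gives everything. -/
theorem omega_le_of_mixed (hM : Mixed Q M D) : Cfsg.Geo.omegaGL (⇑Q) ≤ M := by
  classical
  obtain ⟨j, z, hz, hz0, w, hw, hin⟩ := hM
  have hcj : ∀ (i : Fin t) (x : ι → F), x ∈ D i → ∀ r, r ≠ i → cp r x = 0 := fun i x hx r hr => by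
    rw [Decomp.comp_of_mem _ hx, if_neg hr]
  obtain ⟨l, hlj, hl⟩ : ∃ l, l ≠ j ∧ cp l w ≠ 0 := by
    by_contra h
    push Not at h
    refine hw ?_
    have e : w = cp j w := Decomp.ext_comp hD.decomp.decomp fun i => by
      rw [Decomp.comp_of_mem _ (Decomp.comp_mem _ j w)]
      split_ifs with hi
      · rw [hi]
      · exact h i hi
    rw [e]; exact Decomp.comp_mem _ j w
  obtain ⟨e, he, he0, hQe, hze⟩ :=
    inn_singular_of_zero hQ h2 hn hD hk hHM hMI hin (hcj j z hz l hlj) hl
  have horth : ∀ {i r : Fin t}, i ≠ r → ∀ x ∈ D i, ∀ y ∈ D r, polar Q x y = 0 :=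
    fun h x hx y hy => orth_apply_blocks hD h hx hy
  have hlink : ∀ z' ∈ D j, Q z' = 0 → ∀ d ∈ D l, Inn Q M z' d := by
    intro z' hz' hQz' d hd
    exact inn_member hQ h2 hn hD hk hHM hMI
      ((inn_member hQ h2 hn hD hk hHM hMI (hze.swap hQe) hz hz0 hze.1
        (fun y hy => horth hlj e he y hy) hz').swap hQz') he he0 hQe
      (fun y hy => horth hlj.symm z' hz' y hy) hd
  have hall : ∀ s, s ≠ j → ∀ z' ∈ D j, Q z' = 0 → ∀ d ∈ D s, Inn Q M z' d := by
    intro s hs z' hz' hQz' d hd
    by_cases hsl : s = l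
    · subst hsl; exact hlink z' hz' hQz' d hd
    obtain ⟨g, hg, hgo, hgs⟩ := exists_exchange hQ h2 hn hD hk (Ne.symm hsl)
    obtain ⟨x, hx, rfl⟩ := hgs d hd
    have := (hlink z' hz' hQz' x hx).conj hMI (hHM hg)
    rwa [hgo j hlj.symm hs.symm z' hz'] at this
  have hfull : ∀ z' ∈ D j, Full Q M z' := by
    intro z' hz' hQz' v hv
    have hsum : ∀ S : Finset (Fin t), Inn Q M z' (∑ r ∈ S, cp r v) := fun S => by
      induction S using Finset.induction_on with
      | empty => simpa using Inn.zero (Q := Q) (M := M) hQz'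
      | insert r S hr ih =>
        rw [Finset.sum_insert hr]
        refine Inn.add ?_ ih
        by_cases hrj : r = j
        · subst hrj
          refine inn_block hD hQ hn hHM hz' (Decomp.comp_mem _ r v) hQz' ?_
          rw [polar_comm, ← polar_comp hD v hz', polar_comm]; exact hv
        · exact hall r hrj z' hz' hQz' _ (Decomp.comp_mem _ r v)
    have := hsum Finset.univ
    rw [Decomp.sum_comp] at this
    exact this.mem hQz' hv
  obtain ⟨f, hf, hQf, hzf⟩ := exists_partner_in (hD.decomp.nondegenerate j) hz hz0 hin.1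
  exact Full.le_of_pair hQ hn hMI (hfull z hz) (hfull f hf) hin.1 hQf
    (by rw [hzf]; exact one_ne_zero)

end CfsgLib.Geometric.Orth.EvenChar
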