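import Cfsg.Agent.Lib.Geometric.OrthEven.Link

/-!
In characteristic two the stabiliser in `omegaGL` of an orthogonal decomposition into isometric
members of dimension at least four is maximal, members of plus type of dimension four over two
elements excepted.
-/

set_option autoImplicit false

namespace CfsgLib.Geometric.Orth.EvenChar

open Matrix QuadraticMap Module CfsgLib.ClassicalForms

variable {ι : Type} [Fintype ι] [DecidableEq ι] {F : Type*} [Field F] [Finite F]
variable {Q : QuadraticForm F (ι → F)} {t k : ℕ} {D : Fin t → Submodule F (ι → F)}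
variable (hQ : Nondeg Q) (h2 : (2 : F) = 0) (hn : 5 ≤ Fintype.card ι)
  (hD : Cfsg.Geo.IsOrthogonalMDecomposition (⇑Q) k D) (hk : 4 ≤ k)

local notation "cp" => Decomp.comp hD.decomp.decomp

include hQ h2 hD hk

/-- An isometry moving the decomposition moves some singular vector of a member out of all
members. -/
lemma exists_singular_moved {g : GL ι F} (hg : g ∈ Cfsg.isometryGroup F (⇑Q))
    (hstab : g ∉ Cfsg.Geo.decompositionStabilizer D) :
    ∃ l, ∃ u ∈ D l, u ≠ 0 ∧ Q u = 0 ∧ ∀ r, ap g u ∉ D r := by
  classical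
  by_contra hall
  push Not at hall
  have key : ∀ l, ∃ r, ∀ x ∈ D l, ap g x ∈ D r := by
    intro l
    have hW := hD.decomp.nondegenerate l
    obtain ⟨e, he, he0, hQe⟩ := exists_singular h2 (Q := Q) (U := D l)
      (by rw [hD.decomp.decomp.finrank_eq]; omega)
    obtain ⟨r, hr⟩ := hall l e he he0 hQe
    have hfol : ∀ s ∈ D l, Q s = 0 → polar Q e s ≠ 0 → ap g s ∈ D r := by
      intro s hs hQs hes
      obtain ⟨r', hr'⟩ := hall l s hs (fun h => hes (by rw [h, polar_zero_right])) hQs
      by_cases hrr : r' = r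
      · rw [← hrr]; exact hr'
      · exact absurd (by rw [← polar_ap hg]; exact orth_apply_blocks hD (Ne.symm hrr) hr hr') hes
    obtain ⟨f, hf, hQf, hef⟩ := exists_partner_in hW he he0 hQe
    have hgf := hfol f hf hQf (by rw [hef]; exact one_ne_zero)
    have haniso : ∀ y ∈ perp2 Q (D l) e f, Q y ≠ 0 → ap g y ∈ D r := by
      intro y hy hQy
      obtain ⟨hy, hye, hyf⟩ := mem_perp2.1 hy
      have h1 := hfol (e + y - Q y • f)
        ((D l).sub_mem ((D l).add_mem he hy) ((D l).smul_mem _ hf))
        (by
          rw [map_sub_eq, QuadraticMap.map_add (⇑Q), QuadraticMap.map_smul, polar_smul_right,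
            polar_add_left, hef, hyf, polar_comm Q e y, hye, hQe, hQf]
          simp)
        (by
          rw [polar_sub_right, polar_add_right, polar_smul_right, polar_self_zero h2,
            polar_comm Q e y, hye, hef]
          simpa using hQy)
      rw [ap_sub, ap_add, ap_smul] at h1
      have h := (D r).add_mem ((D r).sub_mem h1 hr) ((D r).smul_mem (Q y) hgf)
      convert h using 1
      abel
    have hperp : ∀ y ∈ perp2 Q (D l) e f, ap g y ∈ D r := by
      intro y hy
      by_cases hQy : Q y = 0
      · by_cases hy0 : y = 0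
        · rw [hy0, ap_zero]; exact (D r).zero_mem
        obtain ⟨z, hz, hQz, hyz⟩ := exists_partner_in (nondeg_perp2 h2 hW he hf hef) hy hy0 hQy
        have hz0 : z ≠ 0 := fun h => by rw [h, polar_zero_right] at hyz; exact zero_ne_one hyz
        obtain ⟨r₁, hr₁⟩ := hall l y (mem_perp2.1 hy).1 hy0 hQy
        obtain ⟨r₂, hr₂⟩ := hall l z (mem_perp2.1 hz).1 hz0 hQz
        have h12 : r₁ = r₂ := by
          by_contra hne
          have := orth_apply_blocks hD hne hr₁ hr₂
          rw [polar_ap hg, hyz] at this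
          exact one_ne_zero this
        subst h12
        have hQs : Q (y + z) = 1 := by
          rw [QuadraticMap.map_add (⇑Q), hQy, hQz, hyz]; ring
        have hsr := haniso _ (Submodule.add_mem _ hy hz) (by rw [hQs]; exact one_ne_zero)
        have hsr₁ : ap g (y + z) ∈ D r₁ := by rw [ap_add]; exact (D r₁).add_mem hr₁ hr₂
        by_cases hrr : r₁ = r
        · exact hrr ▸ hr₁
        · exfalso
          have h := Decomp.comp_of_mem hD.decomp.decomp (i := r) hsr₁
          rw [Decomp.comp_of_mem _ hsr, if_pos rfl, if_neg (Ne.symm hrr)] at h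
          have h' : y + z = 0 := ap_injective g (h.trans (ap_zero g).symm)
          rw [h', QuadraticMap.map_zero] at hQs
          exact zero_ne_one hQs
      · exact haniso y hy hQy
    refine ⟨r, fun x hx => ?_⟩
    have h := hperp _ (proj_mem h2 he hf hef hx)
    rw [ap_sub, ap_sub, ap_smul, ap_smul] at h
    have h' := (D r).add_mem ((D r).add_mem h ((D r).smul_mem (polar Q x e) hgf))
      ((D r).smul_mem (polar Q x f) hr)
    convert h' using 1
    abel
  choose π hπ using key
  have hmap : ∀ l, (D l).map (apEquiv g).toLinearMap = D (π l) := fun l =>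
    Submodule.eq_of_le_of_finrank_eq (fun _ ⟨x, hx, e⟩ => e ▸ hπ l x hx)
      ((LinearEquiv.finrank_map_eq _ _).trans (by simp only [hD.decomp.decomp.finrank_eq]))
  have hinj : Function.Injective π := fun a b hab => by
    by_contra hne
    obtain ⟨x, hx, hx0⟩ := Decomp.exists_ne_zero_mem hD.decomp.decomp a
    obtain ⟨y, hy, hyx⟩ := ((hmap b).trans (congrArg D hab.symm)).ge (hπ a x hx)
    have hxy : y = x := ap_injective g hyx
    subst hxy
    have h1 := Decomp.comp_of_mem hD.decomp.decomp (i := a) hx
    rw [Decomp.comp_of_mem hD.decomp.decomp (i := a) hy, if_pos rfl, if_neg hne] at h1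
    exact hx0 h1.symm
  exact hstab (mem_decompStab hD.decomp.decomp
    (π := Equiv.ofBijective π (Finite.injective_iff_bijective.1 hinj)) hπ)

include hn

/-- The stabiliser in `omegaGL` of an orthogonal decomposition is maximal. -/
theorem orthDecomp_isMaximalIn_even (hex : k = 4 → Nat.card F ≤ 2 → NoPlane Q D) :
    Cfsg.Geo.IsMaximalIn (Cfsg.Geo.omegaGL (⇑Q))
      (Cfsg.Geo.decompositionStabilizer D ⊓ Cfsg.Geo.omegaGL (⇑Q)) := by
  classical
  refine ⟨lt_of_le_of_ne inf_le_right fun he => ?_, fun M hHM hMS => ?_⟩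
  · have h2t := hD.decomp.decomp.two_le
    set a : Fin t := ⟨0, by omega⟩
    set b : Fin t := ⟨1, by omega⟩
    have hab : a ≠ b := by simp [a, b, Fin.ext_iff]
    obtain ⟨e, he', he0, hQe⟩ := exists_singular h2 (Q := Q) (U := D a)
      (by rw [hD.decomp.decomp.finrank_eq]; omega)
    obtain ⟨f, hf, hQf, hef⟩ := exists_partner_in (hD.decomp.nondegenerate a) he' he0 hQe
    obtain ⟨y, hy, hy0⟩ := Decomp.exists_ne_zero_mem hD.decomp.decomp b
    have hey := orth_apply_blocks hD hab he' hy
    have hm : sg Q e y hQe hey ∈ Cfsg.Geo.decompositionStabilizer D ⊓ Cfsg.Geo.omegaGL (⇑Q) := by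
      rw [he]; exact sg_mem hQ hn hQe hey
    obtain ⟨π, hπ⟩ := hm.1
    have h1 : ap (sg Q e y hQe hey) f ∈ D (π a) := by rw [← hπ a]; exact ⟨f, hf, rfl⟩
    rw [ap_sg, polar_comm Q f e, hef, one_smul, orth_apply_blocks hD hab hf hy, zero_add,
      mul_one] at h1
    have ha := Decomp.comp_of_mem hD.decomp.decomp (i := a) h1
    have hb := Decomp.comp_of_mem hD.decomp.decomp (i := b) h1
    rw [map_sub, map_add, map_smul, Decomp.comp_of_mem _ hf, Decomp.comp_of_mem _ hy,
      Decomp.comp_of_mem _ he'] at ha hb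
    simp only [if_pos, if_neg hab, add_zero] at ha
    simp only [if_pos, if_neg hab.symm, zero_add, smul_zero, sub_zero] at hb
    by_cases hπb : b = π a
    · rw [if_neg fun h => hab (h.trans hπb.symm), sub_eq_zero] at ha
      have := congrArg (fun z => polar Q z e) ha
      simp [polar_smul_left, polar_self_zero h2, polar_comm Q f e, hef] at this
    · rw [if_neg hπb] at hb
      exact hy0 hb
  by_cases hM : M ≤ Cfsg.Geo.decompositionStabilizer D
  · exact Or.inl (le_antisymm (le_inf hM hMS) hHM)
  obtain ⟨g, hgM, hg⟩ := SetLike.not_le_iff_exists.mp hM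
  have hMI : M ≤ Cfsg.isometryGroup F (⇑Q) := hMS.trans omegaGL_le
  refine Or.inr (le_antisymm hMS (omega_le_of_mixed hQ h2 hn hD hk hHM hMI ?_))
  obtain ⟨l, u, hu, hu0, hQu, hgu⟩ := exists_singular_moved hQ h2 hD hk (hMI hgM) hg
  set a := ap g u with hadef
  have hQa : Q a = 0 := by rw [hadef, mem_isometryGroup_iff.mp (hMI hgM)]; exact hQu
  have hB : ∀ y ∈ D l, polar Q u y = 0 → Inn Q M a (ap g y) := fun y hy huy =>
    (inn_block hD hQ hn hHM hu hy hQu huy).conj hMI hgM
  by_contra hmix
  -- some direction is not aligned with the centre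
  obtain ⟨y, hy, y', hy', huy, huy', hyy⟩ := exists_pair h2 (hD.decomp.nondegenerate l)
    (by rw [hD.decomp.decomp.finrank_eq]; omega) hu hu0
  obtain ⟨w, hw, huw, i, hi⟩ : ∃ w ∈ D l, polar Q u w = 0 ∧
      ∃ i, cp i (ap g w) ∉ Submodule.span F {cp i a} := by
    by_contra hcon
    push Not at hcon
    have hal : ∀ w ∈ D l, polar Q u w = 0 → ∀ i, ∃ c : F, c • cp i a = cp i (ap g w) :=
      fun w hw huw i => Submodule.mem_span_singleton.1 (hcon w hw huw i)
    have h0 : polar Q (ap g y) (ap g y') = 0 := by
      have hs : ∀ S : Finset (Fin t), polar Q (ap g y) (∑ r ∈ S, cp r (ap g y')) = 0 := fun S => by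
        induction S using Finset.induction_on with
        | empty => simp
        | insert r S hr ih =>
          rw [Finset.sum_insert hr, polar_add_right, ih, add_zero,
            polar_comp hD _ (Decomp.comp_mem _ r _)]
          obtain ⟨c, hc⟩ := hal y hy huy r
          obtain ⟨c', hc'⟩ := hal y' hy' huy' r
          rw [← hc, ← hc', polar_smul_left, polar_smul_right, polar_self_zero h2, smul_zero,
            smul_zero]
      have := hs Finset.univ
      rwa [Decomp.sum_comp] at this
    rw [polar_ap (hMI hgM), hyy] at h0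
    exact one_ne_zero h0
  have b := hB w hw huw
  have haniso : ∀ j, cp j (ap g w) ∉ Submodule.span F {cp j a} → Q (cp j a) ≠ 0 := fun j hj h0 =>
    hmix (mixed_of_singular hQ h2 hn hD hk hHM hMI b (hgu j) h0 hj)
  rcases mixed_or_special hQ h2 hn hD hk hHM hMI hex b hgu (haniso i hi) hi with
    h | ⟨⟨hk4, hq⟩, hp, hQi, s, hsi, hrest⟩
  · exact hmix h
  have ha0 : a ≠ 0 := fun h => hu0 (ap_injective g (h.trans (ap_zero g).symm))
  have hzero : ∀ r, r ≠ i → r ≠ s → cp r (ap g w) = 0 := fun r hri hrs => by
    by_contra hne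
    exact hmix (mixed_of_zero hQ h2 hn hD hk hHM hMI b ha0 (hrest r hri hrs) hne)
  have hsum : ap g w = cp i (ap g w) + cp s (ap g w) := by
    conv_lhs => rw [← Decomp.sum_comp hD.decomp.decomp (ap g w)]
    rw [← Finset.add_sum_erase _ _ (Finset.mem_univ i)]
    congr 1
    refine Finset.sum_eq_single_of_mem s (Finset.mem_erase.2 ⟨hsi, Finset.mem_univ _⟩)
      fun r hr hrs => hzero r (Finset.ne_of_mem_erase hr) hrs
  -- the second member behaves like the first
  have hps : polar Q (cp s (ap g w)) (cp s a) ≠ 0 := by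
    intro h0
    have hab : polar Q (ap g w) a = 0 := by rw [polar_comm]; exact b.2.1
    have hmemi := Decomp.comp_mem hD.decomp.decomp i (ap g w)
    have hmems := Decomp.comp_mem hD.decomp.decomp s (ap g w)
    rw [hsum, polar_add_left, polar_comm Q (cp i (ap g w)) a, polar_comp hD a hmemi,
      polar_comm Q (cp s (ap g w)) a, polar_comp hD a hmems, polar_comm Q (cp s a), h0, add_zero,
      polar_comm] at hab
    exact hp hab
  have hns : cp s (ap g w) ∉ Submodule.span F {cp s a} := fun hsp => by
    obtain ⟨c, hc⟩ := Submodule.mem_span_singleton.1 hsp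
    rw [← hc, polar_smul_left, polar_self_zero h2, smul_zero] at hps
    exact hps rfl
  rcases mixed_or_special hQ h2 hn hD hk hHM hMI hex b hgu (haniso s hns) hns with
    h | ⟨-, -, hQs, -⟩
  · exact hmix h
  have hQw : Q w = 0 := by
    rw [← mem_isometryGroup_iff.mp (hMI hgM) w, hsum, QuadraticMap.map_add (⇑Q), hQi, hQs,
      orth_apply_blocks hD hsi.symm (Decomp.comp_mem _ i _) (Decomp.comp_mem _ s _)]
    simp
  obtain ⟨c, hc⟩ := Submodule.mem_span_singleton.1 (hex hk4 hq l u hu w hw hu0 hQu hQw huw)
  apply hi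
  rw [← hc, ap_smul, map_smul]
  exact Submodule.smul_mem _ _ (Submodule.mem_span_singleton_self _)

end CfsgLib.Geometric.Orth.EvenChar
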