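import Cfsg.Agent.Lib.Geometric.OrthEven.Basic

/-!
In characteristic two, a Siegel element of centre outside the members of an orthogonal decomposition
and direction not aligned with it gives one with centre in a member.
-/

set_option autoImplicit false

namespace CfsgLib.Geometric.Orth.EvenChar

open Matrix QuadraticMap Module CfsgLib.ClassicalForms

variable {ι : Type} [Fintype ι] [DecidableEq ι] {F : Type*} [Field F] [Finite F]
variable {Q : QuadraticForm F (ι → F)} {t k : ℕ} {D : Fin t → Submodule F (ι → F)}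
variable {M : Subgroup (GL ι F)}

lemma eq_one_of_card_le (hq : Nat.card F ≤ 2) {x : F} (hx : x ≠ 0) : x = 1 := by
  classical
  have := Fintype.ofFinite F
  by_contra h
  have h1 := Finset.card_le_univ ({0, 1, x} : Finset F)
  rw [Finset.card_eq_three.mpr ⟨0, 1, x, zero_ne_one, Ne.symm hx, Ne.symm h, rfl⟩,
    ← Nat.card_eq_fintype_card] at h1
  omega

lemma exists_ne_zero_one (hq : ¬ Nat.card F ≤ 2) : ∃ c : F, c ≠ 0 ∧ c ≠ 1 := by
  classical
  have := Fintype.ofFinite F
  obtain ⟨c, -, hc⟩ := Finset.exists_mem_notMem_of_card_lt_card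
    (s := ({0, 1} : Finset F)) (t := Finset.univ) (by
      refine lt_of_le_of_lt Finset.card_le_two ?_
      rw [Finset.card_univ, ← Nat.card_eq_fintype_card]
      omega)
  exact ⟨c, fun h => hc (by simp [h]), fun h => hc (by simp [h])⟩

variable (hQ : Nondeg Q) (h2 : (2 : F) = 0) (hn : 5 ≤ Fintype.card ι)
  (hD : Cfsg.Geo.IsOrthogonalMDecomposition (⇑Q) k D) (hk : 4 ≤ k)
  (hHM : Cfsg.Geo.decompositionStabilizer D ⊓ Cfsg.Geo.omegaGL (⇑Q) ≤ M)
  (hMI : M ≤ Cfsg.isometryGroup F (⇑Q))

local notation "cp" => Decomp.comp hD.decomp.decomp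

include hQ hn hD hHM hMI

/-- The shift of a direction by a Siegel element of a member fixing the centre. -/
lemma key_shift {l : Fin t} {a b e y : ι → F} (hab : Inn Q M a b) (he : e ∈ D l) (hy : y ∈ D l)
    (hQe : Q e = 0) (hey : polar Q e y = 0) (hae : polar Q a e = 0) (hay : polar Q a y = 0) :
    Inn Q M a (polar Q b e • y - (polar Q b y + Q y * polar Q b e) • e) := by
  have h := inn_shift hQ hn hD hHM hMI hab (sg_block_mem hD hQ hn he hy hQe hey)
    (ap_sg_fix hQe hey hae hay)
  rwa [ap_sg, add_sub_assoc, add_sub_cancel_left] at h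

/-- A vector orthogonal to the direction and one pairing with it. -/
lemma inn_of_sep {l : Fin t} {a b e y : ι → F} (hab : Inn Q M a b) (he : e ∈ D l) (hy : y ∈ D l)
    (hQe : Q e = 0) (hey : polar Q e y = 0) (hae : polar Q a e = 0) (hay : polar Q a y = 0)
    (hbe : polar Q b e = 0) (hby : polar Q b y ≠ 0) : Inn Q M a e := by
  have h := (key_shift hQ hn hD hHM hMI hab he hy hQe hey hae hay).smul (-(polar Q b y)⁻¹)
  rw [hbe] at h
  convert h using 1
  match_scalars <;> field_simp <;> ring

/-- Two shifts with pairing directions. -/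
lemma inn_of_pair {l : Fin t} {a b e y y' : ι → F} (hab : Inn Q M a b) (he : e ∈ D l)
    (hy : y ∈ D l) (hy' : y' ∈ D l) (hQe : Q e = 0) (hey : polar Q e y = 0)
    (hey' : polar Q e y' = 0) (hae : polar Q a e = 0) (hay : polar Q a y = 0)
    (hay' : polar Q a y' = 0) (hbe : polar Q b e ≠ 0) (hyy : polar Q y y' = 1) :
    Inn Q M a e := by
  have h1 := key_shift hQ hn hD hHM hMI hab he hy hQe hey hae hay
  have h3 := key_shift hQ hn hD hHM hMI hab he hy' hQe hey' hae hay'
  have h4 := key_shift hQ hn hD hHM hMI hab he ((D l).add_mem hy hy') hQe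
    (by rw [polar_add_right, hey, hey', add_zero]) hae (by rw [polar_add_right, hay, hay', add_zero])
  rw [QuadraticMap.map_add (⇑Q), hyy, polar_add_right] at h4
  have h := ((h4.sub h1).sub h3).smul (-(polar Q b e)⁻¹)
  convert h using 1
  match_scalars <;> field_simp <;> ring

include h2 hk

lemma three_le_finrank (l : Fin t) : 3 ≤ finrank F (D l) := by
  rw [hD.decomp.decomp.finrank_eq]; omega

/-- A direction not aligned with a singular vector fixed by the stabiliser of the centre. -/
lemma inn_singular {l : Fin t} {a b e : ι → F} (hab : Inn Q M a b) (he : e ∈ D l) (he0 : e ≠ 0)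
    (hQe : Q e = 0) (hae : polar Q a e = 0)
    (hay : ∀ y ∈ D l, polar Q e y = 0 → polar Q a y = 0)
    (hb : cp l b ∉ Submodule.span F {e}) : Inn Q M a e := by
  have hW := hD.decomp.nondegenerate l
  by_cases hbe : polar Q b e = 0
  · obtain ⟨y, hy, hyp, hby⟩ := exists_sep_in hQ hW ((Submodule.span_singleton_le_iff_mem _ _).2 he)
      (Decomp.comp_mem _ l b) hb
    have hey := hyp e (Submodule.mem_span_singleton_self e)
    exact inn_of_sep hQ hn hD hHM hMI hab he hy hQe hey hae (hay y hy hey) hbe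
      (by rw [polar_comp hD b hy, hby]; exact one_ne_zero)
  · obtain ⟨y, hy, y', hy', hey, hey', hyy⟩ := exists_pair h2 hW
      (three_le_finrank hQ h2 hn hD hk hHM hMI l) he he0
    exact inn_of_pair hQ hn hD hHM hMI hab he hy hy' hQe hey hey' hae (hay y hy hey)
      (hay y' hy' hey') hbe hyy

/-- A centre avoiding a member with a direction meeting it has a singular direction in it. -/
lemma inn_singular_of_zero {l : Fin t} {a b : ι → F} (hab : Inn Q M a b)
    (hal : cp l a = 0) (hbl : cp l b ≠ 0) : ∃ e ∈ D l, e ≠ 0 ∧ Q e = 0 ∧ Inn Q M a e := by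
  have ha : ∀ y ∈ D l, polar Q a y = 0 := fun y hy => by
    rw [polar_comp hD a hy, hal, polar_zero_left]
  obtain ⟨e, he, he0, hQe, hbe⟩ := exists_singular_pairing h2 (hD.decomp.nondegenerate l)
    (three_le_finrank hQ h2 hn hD hk hHM hMI l) (Decomp.comp_mem _ l b) hbl
  refine ⟨e, he, he0, hQe, inn_singular hQ h2 hn hD hk hHM hMI hab he he0 hQe (ha e he)
    (fun y hy _ => ha y hy) fun hsp => ?_⟩
  obtain ⟨c, hc⟩ := Submodule.mem_span_singleton.1 hsp
  rw [← hc, polar_smul_left, polar_self_zero h2, smul_zero] at hbe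
  exact zero_ne_one hbe

/-- A centre avoiding a member with a direction meeting it. -/
lemma mixed_of_zero {l : Fin t} {a b : ι → F} (hab : Inn Q M a b) (ha0 : a ≠ 0)
    (hal : cp l a = 0) (hbl : cp l b ≠ 0) : Mixed Q M D := by
  obtain ⟨e, he, he0, hQe, hin⟩ := inn_singular_of_zero hQ h2 hn hD hk hHM hMI hab hal hbl
  refine ⟨l, e, he, he0, a, fun h => ha0 ?_, hin.swap hQe⟩
  have := Decomp.comp_of_mem hD.decomp.decomp (i := l) h
  rw [if_pos rfl, hal] at this
  exact this.symm

/-- A direction not aligned with a singular component of the centre. -/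
lemma mixed_of_singular {l : Fin t} {a b : ι → F} (hab : Inn Q M a b) (ha : a ∉ D l)
    (hal : Q (cp l a) = 0) (hbl : cp l b ∉ Submodule.span F {cp l a}) : Mixed Q M D := by
  by_cases h0 : cp l a = 0
  · exact mixed_of_zero hQ h2 hn hD hk hHM hMI hab (fun h => ha (h ▸ (D l).zero_mem)) h0
      fun h => hbl (h ▸ Submodule.zero_mem _)
  have he := Decomp.comp_mem hD.decomp.decomp l a
  have hpe : polar Q a (cp l a) = 0 := by rw [polar_comp hD a he, polar_self_zero h2]
  exact ⟨l, _, he, h0, a, ha, (inn_singular hQ h2 hn hD hk hHM hMI hab he h0 hal hpe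
    (fun y hy hy' => by rwa [polar_comp hD a hy]) hbl).swap hal⟩

omit hQ hn hk hHM hMI in
/-- A singular vector with one anisotropic component has another. -/
lemma exists_other_aniso {l : Fin t} {a : ι → F} (hQa : Q a = 0) (hl : Q (cp l a) ≠ 0) :
    ∃ s, s ≠ l ∧ Q (cp s a) ≠ 0 := by
  classical
  by_contra hall
  push Not at hall
  have hsum : ∀ S : Finset (Fin t), l ∉ S → Q (∑ r ∈ S, cp r a) = 0 ∧
      polar Q (cp l a) (∑ r ∈ S, cp r a) = 0 := fun S hS => by
    induction S using Finset.induction_on with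
    | empty => simp
    | insert r S hr ih =>
      rw [Finset.mem_insert, not_or] at hS
      obtain ⟨i1, i2⟩ := ih hS.2
      have hr' : polar Q (cp r a) (∑ r ∈ S, cp r a) = 0 := by
        rw [polar_comm, polar_comp hD _ (Decomp.comp_mem _ r a), map_sum,
          Finset.sum_eq_zero fun i hi => by
            rw [Decomp.comp_of_mem _ (Decomp.comp_mem _ i a), if_neg]
            exact fun h => hr (h ▸ hi),
          polar_zero_left]
      rw [Finset.sum_insert hr]
      exact ⟨by rw [QuadraticMap.map_add (⇑Q), hall r (Ne.symm hS.1), i1, hr']; simp,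
        by rw [polar_add_right, i2,
          orth_apply_blocks hD hS.1 (Decomp.comp_mem _ l a) (Decomp.comp_mem _ r a), add_zero]⟩
  obtain ⟨i1, i2⟩ := hsum (Finset.univ.erase l) (Finset.notMem_erase l _)
  refine hl ?_
  rw [← Decomp.sum_comp hD.decomp.decomp a, ← Finset.add_sum_erase _ _ (Finset.mem_univ l),
    QuadraticMap.map_add (⇑Q), i1, i2] at hQa
  simpa using hQa

/-- Over two elements, moving a singular vector of another member by the Siegel element of a
direction inside a member. -/
lemma mixed_of_trick (hq : Nat.card F ≤ 2) {l : Fin t} {a c : ι → F} (hac : Inn Q M a c)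
    (hc : c ∈ D l) (hQc : Q c ≠ 0) (hal : Q (cp l a) ≠ 0)
    (h3 : c ≠ cp l a ∨ ∀ s, s ≠ l → ∃ r, r ≠ l ∧ r ≠ s ∧ cp r a ≠ 0) : Mixed Q M D := by
  have hQa : Q a = 0 := hac.1
  have hpc : polar Q a c = 0 := hac.2.1
  obtain ⟨s, hsl, hs⟩ := exists_other_aniso h2 hD hQa hal
  have hWs := hD.decomp.nondegenerate s
  have hAs : cp s a ∈ D s := Decomp.comp_mem _ s a
  have hAs0 : cp s a ≠ 0 := fun h => hs (by rw [h, QuadraticMap.map_zero])
  obtain ⟨x, hx, hx0, hQx, hax⟩ :=
    exists_singular_pairing h2 hWs (three_le_finrank hQ h2 hn hD hk hHM hMI s) hAs hAs0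
  have hxa : polar Q x a = 1 := by rw [polar_comm, polar_comp hD a hx, hax]
  have hxc : polar Q x c = 0 := orth_apply_blocks hD hsl hx hc
  have hQc1 : Q c = 1 := eq_one_of_card_le hq hQc
  have hQs1 : Q (cp s a) = 1 := eq_one_of_card_le hq hs
  have hT := hac.mem hQa hpc
  set T := sg Q a c hQa hpc
  have hTx : ap T x = x + c - a := by
    rw [ap_sg, hxa, hxc, hQc1]; module
  -- a vector of the member fixed by the element
  obtain ⟨y, hy, hy0⟩ := Submodule.exists_mem_ne_zero_of_ne_bot
    (show perp2 Q (D s) x (cp s a) ≠ ⊥ from fun h => by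
      have := finrank_le_perp2 h2 (Q := Q) (W := D s) x (cp s a)
      rw [h, finrank_bot, hD.decomp.decomp.finrank_eq] at this
      omega)
  obtain ⟨hyD, hyx, hyA⟩ := mem_perp2.1 hy
  have hya : polar Q y a = 0 := by
    rw [polar_comm, polar_comp hD a hyD, polar_comm]; exact hyA
  have hin := (inn_block hD hQ hn hHM hx hyD hQx (by rw [polar_comm]; exact hyx)).conj hMI hT
  rw [ap_sg_fix hQa hpc hya (orth_apply_blocks hD hsl hyD hc), hTx] at hin
  have hcs : cp s (x + c - a) = x - cp s a := by
    rw [map_sub, map_add, Decomp.comp_of_mem _ hx, Decomp.comp_of_mem _ hc, if_pos rfl, if_neg hsl,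
      add_zero]
  have hQxA : Q (x - cp s a) = 0 := by
    rw [map_sub_eq, hQx, hQs1, polar_comm, hax]; ring
  refine mixed_of_singular hQ h2 hn hD hk hHM hMI hin (fun hmem => ?_) (l := s)
    (by rw [hcs]; exact hQxA) ?_
  · -- the new centre meets a second member
    have hout : ∀ r, r ≠ s → cp r (x + c - a) = 0 := fun r hr => by
      rw [Decomp.comp_of_mem _ hmem, if_neg hr]
    have hcl := hout l hsl.symm
    rw [map_sub, map_add, Decomp.comp_of_mem _ hx, Decomp.comp_of_mem _ hc, if_neg hsl.symm,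
      if_pos rfl, zero_add, sub_eq_zero] at hcl
    rcases h3 with h | h
    · exact h hcl
    · obtain ⟨r, hrl, hrs, hr⟩ := h s hsl
      have := hout r hrs
      rw [map_sub, map_add, Decomp.comp_of_mem _ hx, Decomp.comp_of_mem _ hc, if_neg hrs,
        if_neg hrl, add_zero, zero_sub, neg_eq_zero] at this
      exact hr this
  · rw [hcs, Decomp.comp_of_mem _ hyD, if_pos rfl]
    intro hsp
    obtain ⟨μ, hμ⟩ := Submodule.mem_span_singleton.1 hsp
    have h := congrArg (fun z => polar Q z (cp s a)) hμ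
    simp only [polar_smul_left, polar_sub_left, polar_self_zero h2, sub_zero, smul_eq_mul, hyA,
      polar_comm Q x (cp s a), hax, mul_one] at h
    rw [h, zero_smul] at hμ
    exact hy0 hμ.symm

/-- No totally singular plane inside any member. -/
def NoPlane (Q : QuadraticForm F (ι → F)) (D : Fin t → Submodule F (ι → F)) : Prop :=
  ∀ l, ∀ x ∈ D l, ∀ y ∈ D l, x ≠ 0 → Q x = 0 → Q y = 0 → polar Q x y = 0 →
    y ∈ Submodule.span F {x}

variable (hex : k = 4 → Nat.card F ≤ 2 → NoPlane Q D)
include hex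

/-- A direction not aligned with an anisotropic component of the centre, one configuration over
two elements excepted. -/
lemma mixed_or_special {l : Fin t} {a b : ι → F} (hab : Inn Q M a b) (ha : ∀ j, a ∉ D j)
    (hal : Q (cp l a) ≠ 0) (hbl : cp l b ∉ Submodule.span F {cp l a}) :
    Mixed Q M D ∨ ((k = 4 ∧ Nat.card F ≤ 2) ∧ polar Q (cp l b) (cp l a) ≠ 0 ∧ Q (cp l b) = 0 ∧
      ∃ s, s ≠ l ∧ ∀ r, r ≠ l → r ≠ s → cp r a = 0) := by
  classical
  have hW := hD.decomp.nondegenerate l
  have hd := three_le_finrank hQ h2 hn hD hk hHM hMI l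
  set A := cp l a
  set B := cp l b
  have hA : A ∈ D l := Decomp.comp_mem _ l a
  have hB : B ∈ D l := Decomp.comp_mem _ l b
  have hA0 : A ≠ 0 := fun h => hal (by rw [h, QuadraticMap.map_zero])
  have hpb : ∀ y ∈ D l, polar Q b y = polar Q B y := fun y hy => polar_comp hD b hy
  have hpa : ∀ y ∈ D l, polar Q a y = polar Q A y := fun y hy => polar_comp hD a hy
  have haA : polar Q a A = 0 := by rw [hpa A hA, polar_self_zero h2]
  have fin : ∀ e ∈ D l, e ≠ 0 → Q e = 0 → Inn Q M a e → Mixed Q M D :=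
    fun e he he0 hQe h => ⟨l, e, he, he0, a, ha l, h.swap hQe⟩
  obtain ⟨e, he, he0, hQe, heA, hBe⟩ := exists_singular_perp_pairing h2 hW hQ hd hA hal hB hbl
  have hbe : polar Q b e ≠ 0 := by rw [hpb e he]; exact hBe
  have hae : polar Q a e = 0 := by rw [hpa e he, polar_comm, heA]
  by_cases hk5 : 5 ≤ k
  · obtain ⟨y, hy, y', hy', hey, hey', hAy, hAy', hyy⟩ := exists_pair_two h2 hW
      (by rw [hD.decomp.decomp.finrank_eq]; omega) he he0 hA heA
    exact Or.inl (fin e he he0 hQe (inn_of_pair hQ hn hD hHM hMI hab he hy hy' hQe hey hey' hae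
      (by rw [hpa y hy, hAy]) (by rw [hpa y' hy', hAy']) hbe hyy))
  have hk4 : k = 4 := by omega
  by_cases hq : Nat.card F ≤ 2
  swap
  · obtain ⟨c, hc0, hc1⟩ := exists_ne_zero_one hq
    have h1 := key_shift hQ hn hD hHM hMI hab he hA hQe heA hae haA
    have h3 := key_shift hQ hn hD hHM hMI hab he ((D l).smul_mem c hA) hQe
      (by rw [polar_smul_right, heA, smul_zero]) hae (by rw [polar_smul_right, haA, smul_zero])
    rw [QuadraticMap.map_smul, polar_smul_right] at h3
    have hne : (c - c * c) * Q A * polar Q b e ≠ 0 := by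
      refine mul_ne_zero (mul_ne_zero ?_ hal) hbe
      rw [show c - c * c = c * (1 - c) by ring]
      exact mul_ne_zero hc0 (sub_ne_zero.2 (Ne.symm hc1))
    have h := (h3.sub (h1.smul c)).smul ((c - c * c) * Q A * polar Q b e)⁻¹
    refine Or.inl (fin e he he0 hQe ?_)
    convert h using 1
    simp only [smul_eq_mul]
    match_scalars <;> field_simp <;> ring
  have h1 := key_shift hQ hn hD hHM hMI hab he hA hQe heA hae haA
  rw [eq_one_of_card_le hq hbe, eq_one_of_card_le hq hal, hpb A hA, mul_one, one_smul] at h1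
  by_cases hp : polar Q B A = 0
  · rw [hp, zero_add, one_smul, sub_eq_add_neg, neg_eq h2] at h1
    refine Or.inl (mixed_of_trick hQ h2 hn hD hk hHM hMI hq h1 ((D l).add_mem hA he) ?_ hal
      (Or.inl fun h => he0 (add_eq_left.1 (h : A + e = A))))
    rw [QuadraticMap.map_add (⇑Q), hQe, polar_comm, heA, add_zero, add_zero]
    exact hal
  have hp1 : polar Q B A = 1 := eq_one_of_card_le hq hp
  have h1' : Inn Q M a A := by
    convert h1 using 1
    rw [hp1, show (1 : F) + 1 = 0 by linear_combination h2, zero_smul, sub_zero]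
  by_cases hQB : Q B = 0
  · by_cases h3 : ∀ s, s ≠ l → ∃ r, r ≠ l ∧ r ≠ s ∧ cp r a ≠ 0
    · exact Or.inl (mixed_of_trick hQ h2 hn hD hk hHM hMI hq h1' hA hal hal (Or.inr h3))
    · push Not at h3
      obtain ⟨s, hs, hs'⟩ := h3
      exact Or.inr ⟨⟨hk4, hq⟩, hp, hQB, s, hs, hs'⟩
  -- a singular vector orthogonal to both
  left
  have hAB : polar Q A B = 1 := by rw [polar_comm]; exact hp1
  obtain ⟨x, hx, hx0⟩ := Submodule.exists_mem_ne_zero_of_ne_bot
    (show perp2 Q (D l) A B ≠ ⊥ from fun h => by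
      have := finrank_le_perp2 h2 (Q := Q) (W := D l) A B
      rw [h, finrank_bot, hD.decomp.decomp.finrank_eq] at this
      omega)
  obtain ⟨y, hy, hxy⟩ := exists_polar_one h2 (nondeg_perp2 h2 hW hA hB hAB) hx hx0
  obtain ⟨e', he', he'0, hQe'⟩ : ∃ e' ∈ perp2 Q (D l) A B, e' ≠ 0 ∧ Q e' = 0 := by
    by_contra hcon
    push Not at hcon
    have hy0 : y ≠ 0 := fun h => by rw [h, polar_zero_right] at hxy; exact zero_ne_one hxy
    obtain ⟨hxD, hxA, hxB⟩ := mem_perp2.1 hx
    obtain ⟨hyD, hyA, hyB⟩ := mem_perp2.1 hy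
    have hQA := eq_one_of_card_le hq hal
    have hQB1 := eq_one_of_card_le hq hQB
    have hQx := eq_one_of_card_le hq (hcon x hx hx0)
    have hQy := eq_one_of_card_le hq (hcon y hy hy0)
    have hQ1 : Q (A + x) = 0 := by
      rw [QuadraticMap.map_add (⇑Q), polar_comm, hxA, hQA, hQx]; linear_combination h2
    have hQ2 : Q (B + y) = 0 := by
      rw [QuadraticMap.map_add (⇑Q), polar_comm, hyB, hQB1, hQy]; linear_combination h2
    have hp12 : polar Q (A + x) (B + y) = 0 := by
      rw [polar_add_left, polar_add_right, polar_add_right, polar_comm Q A y, hyA, hxB, hAB, hxy]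
      linear_combination h2
    have hne : A + x ≠ 0 := fun h => by
      have := congrArg (fun z => polar Q z B) h
      simp only [polar_add_left, hAB, hxB, add_zero, polar_zero_left] at this
      exact one_ne_zero this
    obtain ⟨c, hc⟩ := Submodule.mem_span_singleton.1
      (hex hk4 hq l _ ((D l).add_mem hA hxD) _ ((D l).add_mem hB hyD) hne hQ1 hQ2 hp12)
    have := congrArg (fun z => polar Q z A) hc
    simp only [polar_smul_left, polar_add_left, polar_self_zero h2, hxA, hyA, hp1, add_zero,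
      smul_zero] at this
    exact zero_ne_one this
  obtain ⟨he'D, he'A, he'B⟩ := mem_perp2.1 he'
  exact fin e' he'D he'0 hQe' (inn_of_sep hQ hn hD hHM hMI hab he'D hA hQe' he'A
    (by rw [hpa e' he'D, polar_comm, he'A]) haA (by rw [hpb e' he'D, polar_comm, he'B])
    (by rw [hpb A hA]; exact hp))

end CfsgLib.Geometric.Orth.EvenChar
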